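import Cfsg.Agent.H589.BD.Kill
import Cfsg.Agent.H947.PQ.Own
import Cfsg.Agent.H113.PSU.Facts
import Cfsg.Agent.H934.OutB
import Cfsg.Agent.S0815

/-!
# S4932: `PSU_n(q)`, `n ≥ 4`, in its own characteristic: `Kill p S` (helper576)

* `own_in` : in a group of Lie type of characteristic `p`, a character whose degree has a divisor `> 1` prime to `p`
  is in `B₀` and nontrivial;
* `kill_psu` : `Kill p S` for `S ≃* PSU n F q`, `n ≥ 4`, `p ∣ q`.
-/

set_option autoImplicit false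

universe u v

namespace Cfsg.Agent.H576.BD

open Cfsg Cfsg.Agent.H589.BD Cfsg.Agent.H113.PSU.Levi Cfsg.Agent.H113.PSU.Facts

/-- In own characteristic, degrees with a `p'`-divisor `> 1` are in `B₀`. -/
theorem own_in {p : ℕ} [Fact p.Prime] {G : Type u} [Group G] [Finite G] (hG : IsLieTypeChar p G) (χ : IrrCharacter G)
    {c : ℕ} (hc : c ∣ charDegree (χ : G → ℂ)) (h1 : 1 < c) (hcop : c.Coprime p) : InB0 p χ ∧ NT χ := by
  obtain ⟨st, hdeg, hall, -⟩ := H947.PQ.exists_st (Fact.out : p.Prime) hG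
  constructor
  · refine hall χ ?_
    rintro rfl
    rw [hdeg] at hc
    have h2 : c.Coprime (p ^ (Nat.card G).factorization p) := Nat.Coprime.pow_right _ hcop
    exact h1.ne' (Nat.eq_one_of_dvd_coprimes h2 dvd_rfl hc)
  · apply nt_of_ne_triv
    intro h0
    have h2 : charDegree (χ : G → ℂ) = 1 := by
      rw [h0]
      exact (H686.CharKit.charDegree_eq_one_iff _).2 rfl
    rw [h2] at hc
    exact h1.ne' (Nat.dvd_one.1 hc)

theorem lie_psu {p : ℕ} {F : Type} [Field F] [Fintype F] [hch : CharP F p] {q n : ℕ} (hF : Fintype.card F = q ^ 2)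
    (hn : 4 ≤ n) : IsLieTypeChar p (PSU n F q) :=
  Or.inr (Or.inr (Or.inl ⟨F, inferInstance, inferInstance, hch, n, q, hF, by omega, by omega, ⟨MulEquiv.refl _⟩⟩))

/-! ### Numbers -/

theorem uu_coprime {p q i : ℕ} (hp : p.Prime) (hpq : p ∣ q) (hq : 1 ≤ q) (hi : 1 ≤ i) : (uu q i).Coprime p := by
  rw [Nat.coprime_comm, Nat.Prime.coprime_iff_not_dvd hp]
  exact fun h => not_dvd_q hp hi hq h hpq

theorem uu_odd {q i : ℕ} (hi : Odd i) : uu q i = q ^ i + 1 := by
  unfold uu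
  rw [if_neg (Nat.not_even_iff_odd.2 hi)]

/-- `o ≤ q (q + 1)` is smaller than `w = uu_j / (q+1)`, `j ≥ 5` odd. -/
theorem lt_w {q j w o : ℕ} (hq : 2 ≤ q) (hj : Odd j) (hj5 : 5 ≤ j) (hw : uu q j = (q + 1) * w)
    (ho : o ≤ q * (q + 1)) : o < w := by
  rw [uu_odd hj] at hw
  have h1 : q ^ 5 ≤ q ^ j := Nat.pow_le_pow_right (by omega) hj5
  have h2 : (q + 1) * (q * (q + 1)) < q ^ 5 + 1 := by
    obtain ⟨t, rfl⟩ : ∃ t, q = t + 2 := ⟨q - 2, by omega⟩
    nlinarith [Nat.zero_le t, Nat.zero_le (t ^ 2), Nat.zero_le (t ^ 3), Nat.zero_le (t ^ 4), Nat.zero_le (t ^ 5)]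
  have h3 : (q + 1) * o ≤ (q + 1) * (q * (q + 1)) := Nat.mul_le_mul_left _ ho
  have h4 : (q + 1) * o < (q + 1) * w := by omega
  exact Nat.lt_of_mul_lt_mul_left h4

theorem out_pos {S : Type u} [Group S] [Finite S] [IsSimpleGroup S] (hna : ¬ IsMulCommutative S) :
    0 < Nat.card (Out S) := by
  have h1 := H934.OutB.card_out_mul S hna
  have h2 : 0 < Nat.card (MulAut S) := Nat.card_pos
  rw [← h1] at h2
  exact Nat.pos_of_mul_pos_right h2

/-- **The core**: two characters of degrees `X` and `e`. -/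
theorem kill_of_core {p : ℕ} [Fact p.Prime] {S : Type u} [Group S] [Finite S] [IsSimpleGroup S]
    (hna : ¬ IsMulCommutative S) (hS : SizeOK S) {F : Type} [Field F] [Fintype F] [hch : CharP F p] {q n : ℕ}
    (hF : Fintype.card F = q ^ 2) (hn : 4 ≤ n) (e : S ≃* PSU n F q) (hpq : p ∣ q) (hq : 2 ≤ q)
    (hpS : p ∣ Nat.card S) (ho : Nat.card (Out S) ≤ q * (q + 1)) {j k b R : ℕ} (hj : Odd j) (hj5 : 5 ≤ j) (hk : Even k)
    (hk2 : 2 ≤ k) (φ : IrrCharacter (PSU n F q))
    (hφ : (q ^ 2 - 1) * (q + 1) * charDegree (φ : PSU n F q → ℂ) = q ^ b * uu q j * uu q k)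
    (hR : uu q j * uu q k * R ∣ AA q n) (hRp : R.Coprime p) (hsize : q * (q + 1) * q ^ b < (q ^ 2 - 1) * R) :
    Kill p S := by
  have hp : p.Prime := Fact.out
  have hL : IsLieTypeChar p (PSU n F q) := lie_psu hF hn
  obtain ⟨w, hw⟩ := exists_w (q := q) (by omega) j
  obtain ⟨x, hx⟩ := exists_x (q := q) (by omega) hk
  have how : Nat.card (Out S) < w := lt_w hq hj hj5 hw ho
  have hsq : 0 < q ^ 2 - 1 := by
    have : 2 ^ 2 ≤ q ^ 2 := Nat.pow_le_pow_left hq 2
    omega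
  have hk0 : 0 < uu q k := uu_pos hq (by omega)
  have hw0 : 0 < w := by omega
  have hx0 : 0 < x := by
    rcases Nat.eq_zero_or_pos x with h | h
    · rw [h, mul_zero] at hx; omega
    · exact h
  -- the degree of `φ`
  have hX : charDegree (φ : PSU n F q → ℂ) = q ^ b * w * x := by
    rw [hw, hx] at hφ
    have h1 : (q ^ 2 - 1) * (q + 1) * charDegree (φ : PSU n F q → ℂ) = (q ^ 2 - 1) * (q + 1) * (q ^ b * w * x) := by
      rw [hφ]; ring
    exact Nat.eq_of_mul_eq_mul_left (Nat.mul_pos hsq (by omega)) h1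
  have hwp : w.Coprime p := by
    have h1 := uu_coprime hp hpq (by omega) (show 1 ≤ j by omega)
    rw [hw] at h1
    exact Nat.Coprime.coprime_mul_left h1
  have hkp : (uu q k).Coprime p := uu_coprime hp hpq (by omega) (by omega)
  -- the Levi character
  obtain ⟨η, d, t, a, hη, hd, ht, hA⟩ := levi_char hF (hasCusU F q) (p := p) hn
  have ht0 : 0 < t := Nat.pos_of_dvd_of_pos ht (by omega)
  set ψ : IrrCharacter (PSU n F q) := ⟨η, hη⟩ with hψdef
  have hψ : charDegree (ψ : PSU n F q → ℂ) = d := H670.PSing.charDegree_eq_of hd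
  have hcd : w * uu q k * R ∣ d := by
    refine dvd_of_index hA ht ht0 ?_ ((hwp.mul_left hkp).mul_left hRp)
    refine (dvd_of_eq ?_).trans hR
    rw [hw]; ring
  have hd0 : 0 < d := by rw [← hψ]; exact H686.CharKit.charDegree_pos _
  have hcd' := Nat.le_of_dvd hd0 hcd
  have hw1 : 1 < w := by
    have := out_pos hna
    omega
  have hwX : w ∣ charDegree (φ : PSU n F q → ℂ) := ⟨q ^ b * x, by rw [hX]; ring⟩
  have hwd : w ∣ charDegree (ψ : PSU n F q → ℂ) := by
    rw [hψ]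
    exact (Dvd.intro _ (mul_assoc w (uu q k) R).symm).trans hcd
  obtain ⟨i1, n1⟩ := own_in hL φ hwX hw1 hwp
  obtain ⟨i2, n2⟩ := own_in hL ψ hwd hw1 hwp
  refine kill_common hna hS hpS (tr e φ) (tr e ψ) (InB0.tr e i1) (InB0.tr e i2) (NT.tr e n1) (NT.tr e n2) how
    (by rw [charDegree_tr]; exact hwX) (by rw [charDegree_tr]; exact hwd) ?_
  rw [charDegree_tr, charDegree_tr, hψ, hX]
  rintro ⟨d₁, d₂, hd1, hd2, heq⟩
  have hO := out_pos hna
  have h1 := Nat.le_of_dvd hO hd1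
  have h2 := Nat.pos_of_dvd_of_pos hd2 hO
  have h3 : d ≤ q ^ b * w * x * (q * (q + 1)) := by
    calc d ≤ d * d₂ := Nat.le_mul_of_pos_right d h2
      _ = q ^ b * w * x * d₁ := heq.symm
      _ ≤ _ := Nat.mul_le_mul_left _ (h1.trans ho)
  have h4 : w * uu q k * R ≤ q ^ b * w * x * (q * (q + 1)) := hcd'.trans h3
  rw [hx] at h4
  have h5 : w * x * ((q ^ 2 - 1) * R) ≤ w * x * (q * (q + 1) * q ^ b) := by
    calc w * x * ((q ^ 2 - 1) * R) = w * ((q ^ 2 - 1) * x) * R := by ring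
      _ ≤ q ^ b * w * x * (q * (q + 1)) := h4
      _ = _ := by ring
  have h6 := Nat.le_of_mul_le_mul_left h5 (Nat.mul_pos hw0 hx0)
  omega

/-- `|Out S| = gcd(n, q+1) · 2f ≤ q (q+1)` -/
theorem out_eq {p : ℕ} [Fact p.Prime] {S : Type u} [Group S] [Finite S] [IsSimpleGroup S]
    (hna : ¬ IsMulCommutative S) {F : Type} [Field F] [Fintype F] [hch : CharP F p] {q n : ℕ}
    (hF : Fintype.card F = q ^ 2) (hn : 4 ≤ n) (e : S ≃* PSU n F q) (hq : 2 ≤ q) :
    p ∣ q ∧ ∃ f, 1 ≤ f ∧ 2 * f ≤ q ∧ Nat.card (Out S) = Nat.gcd n (q + 1) * (2 * f) := by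
  have hp : p.Prime := Fact.out
  obtain ⟨f', -, hf'⟩ := FiniteField.card F p
  obtain ⟨f, -, hqf⟩ : ∃ f ≤ (f' : ℕ), q = p ^ f := (Nat.dvd_prime_pow hp).1 (by
    rw [← hf', hF]; exact dvd_pow_self q (by norm_num))
  have hf : 1 ≤ f := by
    by_contra h0
    have : f = 0 := by omega
    subst this
    rw [pow_zero] at hqf
    omega
  refine ⟨by rw [hqf]; exact dvd_pow_self p (by omega), f, hf, ?_, ?_⟩
  · rw [hqf]
    have h3 : 2 * f ≤ 2 ^ f := by
      obtain ⟨g, rfl⟩ : ∃ g, f = g + 1 := ⟨f - 1, by omega⟩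
      have h4 : g < 2 ^ g := Nat.lt_pow_self (by norm_num)
      rw [pow_succ]
      omega
    exact h3.trans (Nat.pow_le_pow_left hp.two_le f)
  · apply H934.OutB.card_out_of_aut hna
    rw [Nat.card_congr (MulAut.congr e).toEquiv, Nat.card_congr e.toEquiv]
    exact Cfsg.Agent.S0815.result (F := F) p f hf hqf hF n (by omega) (by omega)

theorem prod_dvd_AA {q n : ℕ} (hn : 4 ≤ n) (s : Finset ℕ) (hs : s ⊆ idx n) : ∏ i ∈ s, uu q i ∣ AA q n := by
  rw [AA_eq hn]
  exact Finset.prod_dvd_prod_of_subset _ _ _ hs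

/-- `n = 4` -/
theorem kill_four {p : ℕ} [Fact p.Prime] {S : Type u} [Group S] [Finite S] [IsSimpleGroup S]
    (hna : ¬ IsMulCommutative S) (hS : SizeOK S) {F : Type} [Field F] [Fintype F] [hch : CharP F p] {q : ℕ}
    (hF : Fintype.card F = q ^ 2) (e : S ≃* PSU 4 F q) (hpS : p ∣ Nat.card S) : Kill p S := by
  have hp : p.Prime := Fact.out
  have hq : 2 ≤ q := LieClassical.HermBasic.two_le hF
  obtain ⟨hpq, f, hf1, hf, hO⟩ := out_eq (p := p) hna hF le_rfl e hq
  have hL : IsLieTypeChar p (PSU 4 F q) := lie_psu hF le_rfl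
  obtain ⟨φ, hφ⟩ := exF hF (n := 4) le_rfl
  obtain ⟨ψ, hψ⟩ := exG hF (n := 4) le_rfl
  obtain ⟨y, hy⟩ : ∃ y : ℕ, y = q ^ 2 - q + 1 := ⟨_, rfl⟩
  obtain ⟨t, rfl⟩ : ∃ t, q = t + 2 := ⟨q - 2, by omega⟩
  have hq2 : (t + 2) ^ 2 - 1 = (t + 1) * (t + 3) := by
    have : (t + 2) ^ 2 = (t + 1) * (t + 3) + 1 := by ring
    omega
  have hy' : y = t ^ 2 + 3 * t + 3 := by
    have : (t + 2) ^ 2 = t ^ 2 + 3 * t + 2 + (t + 2) := by ring
    omega
  have hX : charDegree (φ : PSU 4 F (t + 2) → ℂ) = (t + 2) ^ 2 * ((t + 2) ^ 2 + 1) := by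
    have h4 : uu (t + 2) 4 = (t + 1) * (t + 3) * ((t + 2) ^ 2 + 1) := by
      unfold uu
      rw [if_pos (by decide)]
      have : (t + 2) ^ 4 = (t + 1) * (t + 3) * ((t + 2) ^ 2 + 1) + 1 := by ring
      omega
    have h1 : uu (t + 2) (4 - 3) = t + 3 := by
      show uu (t + 2) 1 = _
      rw [uu_odd (by decide)]
      ring
    rw [h4, h1, hq2] at hφ
    apply Nat.eq_of_mul_eq_mul_left (show 0 < (t + 1) * (t + 3) * (t + 2 + 1) by positivity)
    rw [hφ]
    ring
  have hY : charDegree (ψ : PSU 4 F (t + 2) → ℂ) = (t + 2) ^ 3 * y := by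
    have h4 : uu (t + 2) (4 - 1) = (t + 3) * (t ^ 2 + 3 * t + 3) := by
      show uu (t + 2) 3 = _
      rw [uu_odd (by decide)]
      ring
    have h1 : uu (t + 2) (4 - 2) = (t + 1) * (t + 3) := by
      show uu (t + 2) 2 = _
      unfold uu
      rw [if_pos (by decide), hq2]
    rw [h4, h1, hq2] at hψ
    apply Nat.eq_of_mul_eq_mul_left (show 0 < (t + 1) * (t + 3) * (t + 2 + 1) by positivity)
    rw [hψ, hy']
    ring
  -- `gcd (q² + 1, q² - q + 1) = 1`
  have hyq : y.Coprime (t + 2) := by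
    have h1 : y = (t + 2) * (t + 1) + 1 := by rw [hy']; ring
    rw [h1]
    simp
  have hcop : y.Coprime ((t + 2) ^ 2 + 1) := by
    have h1 : (t + 2) ^ 2 + 1 = y + (t + 2) := by rw [hy']; ring
    rw [h1]
    simpa using hyq
  have hxp : ((t + 2) ^ 2 + 1).Coprime p := by
    rw [Nat.coprime_comm, Nat.Prime.coprime_iff_not_dvd hp]
    intro h
    exact hp.one_lt.ne' (Nat.dvd_one.1 ((Nat.dvd_add_right (dvd_pow hpq (by norm_num))).1 h))
  have hyp : y.Coprime p := Nat.Coprime.coprime_dvd_right hpq hyq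
  have hy1 : 1 < y := by omega
  obtain ⟨i1, n1⟩ := own_in hL φ (c := (t + 2) ^ 2 + 1) (by rw [hX]; exact dvd_mul_left _ _) (by nlinarith) hxp
  obtain ⟨i2, n2⟩ := own_in hL ψ (c := y) (by rw [hY]; exact dvd_mul_left _ _) hy1 hyp
  have hOpos := out_pos hna
  have hg4 : Nat.gcd 4 (t + 2 + 1) ≤ 4 := Nat.gcd_le_left _ (by norm_num)
  have hlt : Nat.card (Out S) < (t + 2) ^ 2 := by
    rw [hO]
    rcases (show t = 0 ∨ t = 1 ∨ t = 2 ∨ 3 ≤ t by omega) with rfl | rfl | rfl | h3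
    · have : f = 1 := by omega
      subst this
      decide
    · have : f = 1 := by omega
      subst this
      decide
    · have h4 : Nat.gcd 4 (2 + 2 + 1) = 1 := by decide
      rw [h4]
      omega
    · have h4 : Nat.gcd 4 (t + 2 + 1) * (2 * f) ≤ 4 * (t + 2) := Nat.mul_le_mul hg4 hf
      nlinarith
  refine kill_common hna hS hpS (tr e φ) (tr e ψ) (InB0.tr e i1) (InB0.tr e i2) (NT.tr e n1) (NT.tr e n2) hlt
    (by rw [charDegree_tr, hX]; exact dvd_mul_right _ _)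
    (by rw [charDegree_tr, hY]; exact (pow_dvd_pow (t + 2) (by norm_num : 2 ≤ 3)).mul_right _) ?_
  rw [charDegree_tr, charDegree_tr, hX, hY]
  rintro ⟨d₁, d₂, hd1, hd2, heq⟩
  have h1 : y ∣ d₁ := by
    have h2 : ((t + 2) ^ 2 + 1) * d₁ = (t + 2) * y * d₂ := by
      apply Nat.eq_of_mul_eq_mul_left (show 0 < (t + 2) ^ 2 by positivity)
      calc (t + 2) ^ 2 * (((t + 2) ^ 2 + 1) * d₁) = (t + 2) ^ 2 * ((t + 2) ^ 2 + 1) * d₁ := by ring
        _ = _ := by rw [heq]; ring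
    refine hcop.dvd_of_dvd_mul_left ?_
    rw [h2]
    exact Dvd.intro_left ((t + 2) * d₂) (by ring)
  have h2 : y ∣ Nat.card (Out S) := h1.trans hd1
  have h3 := Nat.le_of_dvd hOpos h2
  rw [hO] at h2 h3
  rcases (show t = 0 ∨ t = 1 ∨ t = 2 ∨ 3 ≤ t by omega) with rfl | rfl | rfl | h5
  · have : f = 1 := by omega
    subst this
    rw [hy'] at h2
    revert h2
    decide
  · have : f = 1 := by omega
    subst this
    rw [hy'] at h2
    revert h2
    decide
  · have h4 : Nat.gcd 4 (2 + 2 + 1) = 1 := by decide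
    rw [h4] at h3
    omega
  · have h4 : Nat.gcd 4 (t + 2 + 1) * (2 * f) ≤ 4 * (t + 2) := Nat.mul_le_mul hg4 hf
    rw [hy'] at h3
    have h6 : 3 * t ≤ t ^ 2 := by
      rw [sq]
      exact Nat.mul_le_mul_right t h5
    omega

/-- **`PSU_n(q)`, `n ≥ 4`, own characteristic.** -/
theorem kill_psu {p : ℕ} [Fact p.Prime] {S : Type u} [Group S] [Finite S] [IsSimpleGroup S]
    (hna : ¬ IsMulCommutative S) (hS : SizeOK S) {F : Type} [Field F] [Fintype F] [hch : CharP F p] {q n : ℕ}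
    (hF : Fintype.card F = q ^ 2) (hn : 4 ≤ n) (e : S ≃* PSU n F q) (hpS : p ∣ Nat.card S) : Kill p S := by
  have hp : p.Prime := Fact.out
  rcases (show n = 4 ∨ 5 ≤ n by omega) with rfl | hn5
  · exact kill_four hna hS hF e hpS
  have hq : 2 ≤ q := LieClassical.HermBasic.two_le hF
  obtain ⟨hpq, f, hf1, hf, hO⟩ := out_eq (p := p) hna hF hn e hq
  have ho : Nat.card (Out S) ≤ q * (q + 1) := by
    rw [hO, mul_comm]
    exact Nat.mul_le_mul hf (Nat.gcd_le_right _ (by omega))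
  obtain ⟨t, ht⟩ : ∃ t, q = t + 2 := ⟨q - 2, by omega⟩
  have hq2 : q ^ 2 - 1 = (t + 1) * (t + 3) := by
    rw [ht]
    have : (t + 2) ^ 2 = (t + 1) * (t + 3) + 1 := by ring
    omega
  rcases Nat.even_or_odd n with hev | hod
  · have h6 : 6 ≤ n := by
      obtain ⟨m, hm⟩ := hev
      omega
    obtain ⟨φ, hφ⟩ := exG hF hn
    have hj : Odd (n - 1) := by
      obtain ⟨m, hm⟩ := hev
      exact ⟨m - 1, by omega⟩
    have hk : Even (n - 2) := by
      obtain ⟨m, hm⟩ := hev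
      exact ⟨m - 1, by omega⟩
    refine kill_of_core hna hS hF hn e hpq hq hpS ho (j := n - 1) (k := n - 2) (b := 3) (R := uu q 3 * uu q 1) hj
      (by omega) hk (by omega) φ hφ ?_ ?_ ?_
    · have h1 := prod_dvd_AA (q := q) hn {n - 1, n - 2, 3, 1} (by
        intro i hi
        simp only [Finset.mem_insert, Finset.mem_singleton] at hi
        refine mem_idx hn (by omega) (by omega) ?_ (fun _ => hev)
        unfold exn
        rw [if_pos hev]
        omega)
      rw [Finset.prod_insert (by simp only [Finset.mem_insert, Finset.mem_singleton]; omega),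
        Finset.prod_insert (by simp only [Finset.mem_insert, Finset.mem_singleton]; omega),
        Finset.prod_insert (by simp), Finset.prod_singleton] at h1
      rwa [mul_assoc]
    · exact (uu_coprime hp hpq (by omega) (by norm_num)).mul_left (uu_coprime hp hpq (by omega) le_rfl)
    · rw [uu_odd (by decide), uu_odd (by decide), hq2, ht]
      nlinarith [Nat.zero_le t, Nat.zero_le (t ^ 2), Nat.zero_le (t ^ 3), Nat.zero_le (t ^ 4), Nat.zero_le (t ^ 5),
        Nat.zero_le (t ^ 6)]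
  · obtain ⟨φ, hφ⟩ := exF hF hn
    have hk : Even (n - 3) := by
      obtain ⟨m, hm⟩ := hod
      exact ⟨m - 1, by omega⟩
    have hne : ¬ Even n := Nat.not_even_iff_odd.2 hod
    have hi : Odd (n - 2) := by
      obtain ⟨m, hm⟩ := hod
      exact ⟨m - 1, by omega⟩
    refine kill_of_core hna hS hF hn e hpq hq hpS ho (j := n) (k := n - 3) (b := 2) (R := uu q (n - 2)) hod
      hn5 hk (by omega) φ hφ ?_ ?_ ?_
    · have h1 := prod_dvd_AA (q := q) hn {n, n - 3, n - 2} (by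
        intro i hi
        simp only [Finset.mem_insert, Finset.mem_singleton] at hi
        refine mem_idx hn (by omega) (by omega) ?_ (fun h => by omega)
        unfold exn
        rw [if_neg hne]
        omega)
      rw [Finset.prod_insert (by simp only [Finset.mem_insert, Finset.mem_singleton]; omega),
        Finset.prod_insert (by simp only [Finset.mem_singleton]; omega), Finset.prod_singleton] at h1
      rwa [mul_assoc]
    · exact uu_coprime hp hpq (by omega) (by omega)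
    · have h3 : q ^ 3 ≤ q ^ (n - 2) := Nat.pow_le_pow_right (by omega) (by omega)
      rw [uu_odd hi]
      have h4 : q * (q + 1) * q ^ 2 < (q ^ 2 - 1) * (q ^ 3 + 1) := by
        rw [hq2, ht]
        nlinarith [Nat.zero_le t, Nat.zero_le (t ^ 2), Nat.zero_le (t ^ 3), Nat.zero_le (t ^ 4), Nat.zero_le (t ^ 5)]
      exact h4.trans_le (Nat.mul_le_mul_left _ (by omega))

end Cfsg.Agent.H576.BD
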